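import Mathlib
import Cfsg.Agent.Lib.Helper94.SLDec

set_option autoImplicit false
set_option linter.unusedSimpArgs false

/-! # Decomposition stabilisers with blocks of dimension at least two: basic tools -/

namespace Cfsg.Agent.Lib.Helper63.Mono

open Cfsg.Agent.Lib.Helper94 Module

variable {F V : Type*} [Field F] [AddCommGroup V] [Module F V]

/-- the sum of the blocks different from `j` -/
abbrev Cc {t : ℕ} (D : Fin t → Submodule F V) (j : Fin t) : Submodule F V :=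
  ⨆ (i) (_ : i ≠ j), D i

lemma le_Cc {t : ℕ} (D : Fin t → Submodule F V) {i j : Fin t} (h : i ≠ j) : D i ≤ Cc D j :=
  le_iSup₂_of_le i h le_rfl

lemma eq_zero_of_mem_of_mem_Cc {t : ℕ} {D : Fin t → Submodule F V} (hind : iSupIndep D)
    {j : Fin t} {x : V} (h1 : x ∈ D j) (h2 : x ∈ Cc D j) : x = 0 := by
  have := (hind j).le_bot (Submodule.mem_inf.2 ⟨h1, h2⟩)
  simpa using this

/-! ### formal calculus of transvections -/

lemma tr_conj (g : V ≃ₗ[F] V) (ψ : Dual F V) (b : V) (h : ψ b = 0)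
    (h' : (ψ ∘ₗ (g.symm : V →ₗ[F] V)) (g b) = 0) :
    g * tr ψ b h * g⁻¹ = tr (ψ ∘ₗ (g.symm : V →ₗ[F] V)) (g b) h' := by
  ext x
  simp only [LinearEquiv.mul_apply, tr_apply, map_add, map_smul, LinearMap.comp_apply,
    LinearEquiv.coe_coe, apply_inv_self']
  rfl

lemma tr_add_left (φ ψ : Dual F V) (a : V) (h1 : φ a = 0) (h2 : ψ a = 0) (h3 : (φ + ψ) a = 0) :
    tr (φ + ψ) a h3 = tr φ a h1 * tr ψ a h2 := by
  ext x
  simp only [LinearEquiv.mul_apply, tr_apply, map_add, map_smul, LinearMap.add_apply, h1,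
    smul_zero, add_zero, add_smul, zero_smul]
  abel

lemma tr_add_right (φ : Dual F V) (a b : V) (h1 : φ a = 0) (h2 : φ b = 0) (h3 : φ (a + b) = 0) :
    tr φ (a + b) h3 = tr φ a h1 * tr φ b h2 := by
  ext x
  simp only [LinearEquiv.mul_apply, tr_apply, map_add, map_smul, h2, smul_zero, add_zero,
    smul_add, zero_smul]
  abel

lemma tr_inv (φ : Dual F V) (a : V) (h : φ a = 0) (h' : (-φ) a = 0) :
    (tr φ a h)⁻¹ = tr (-φ) a h' := by
  rw [inv_eq_iff_mul_eq_one]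
  ext x
  simp only [LinearEquiv.mul_apply, tr_apply, map_add, map_smul, LinearMap.neg_apply, h,
    smul_zero, add_zero, neg_smul, LinearEquiv.coe_one, id_eq, map_neg, neg_zero, zero_smul]
  abel

/-- commutator formula -/
lemma tr_comm (φ ψ : Dual F V) (a b : V) (h1 : φ a = 0) (h2 : ψ b = 0) (h3 : φ b = 0)
    (h4 : (ψ a • φ) b = 0) :
    (tr φ a h1)⁻¹ * tr ψ b h2 * tr φ a h1 * (tr ψ b h2)⁻¹ = tr (ψ a • φ) b h4 := by
  rw [tr_inv φ a h1 (by simp [h1]), tr_inv ψ b h2 (by simp [h2])]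
  ext x
  simp only [LinearEquiv.mul_apply, tr_apply, map_add, map_smul, LinearMap.neg_apply, h1, h2, h3,
    smul_zero, add_zero, neg_smul, LinearMap.smul_apply, smul_eq_mul, mul_zero, neg_zero,
    map_neg, smul_neg]
  module

variable {G : Subgroup (V ≃ₗ[F] V)}

lemma mem_comm {φ ψ : Dual F V} {a b : V} {h1 : φ a = 0} {h2 : ψ b = 0}
    (hφ : tr φ a h1 ∈ G) (hψ : tr ψ b h2 ∈ G) (h3 : φ b = 0) (h4 : (ψ a • φ) b = 0) :
    tr (ψ a • φ) b h4 ∈ G := by
  rw [← tr_comm φ ψ a b h1 h2 h3 h4]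
  exact G.mul_mem (G.mul_mem (G.mul_mem (G.inv_mem hφ) hψ) hφ) (G.inv_mem hψ)

/-- the normalised version -/
lemma mem_comm_one {φ ψ : Dual F V} {a b : V} {h1 : φ a = 0} {h2 : ψ b = 0}
    (hφ : tr φ a h1 ∈ G) (hψ : tr ψ b h2 ∈ G) (h3 : φ b = 0) (h5 : ψ a = 1) :
    tr φ b h3 ∈ G := by
  have := mem_comm hφ hψ h3 (by simp [h3])
  simpa only [h5, one_smul] using this

end Cfsg.Agent.Lib.Helper63.Mono
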