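import Mathlib
import Cfsg.Agent.Lib.Helper63.Mono.M2a

set_option autoImplicit false
set_option linter.unusedSimpArgs false
set_option linter.unusedSectionVars false

/-! # Decomposition stabilisers with blocks of dimension at least two: cross transvections -/

namespace Cfsg.Agent.Lib.Helper63.Mono

open Cfsg.Agent.Lib.Helper94 Module

variable {F V : Type*} [Field F] [AddCommGroup V] [Module F V]

/-- the standing hypotheses -/
structure Ctx {t m : ℕ} (D : Fin t → Submodule F V) (G : Subgroup (V ≃ₗ[F] V))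
    (bs : Basis (Σ _ : Fin t, Fin m) F V) : Prop where
  hfr : ∀ i, finrank F (D i) = m
  hind : iSupIndep D
  htop : iSup D = ⊤
  hm : 2 ≤ m
  hP : ∀ φ : V ≃ₗ[F] V, LinearMap.det (φ : V →ₗ[F] V) = 1 → DecStab D φ → φ ∈ G
  hmem : ∀ a, bs a ∈ D a.1
  hspan : ∀ j, ∀ w ∈ D j, ∃ c : Fin m → F, w = ∑ k, c k • bs ⟨j, k⟩

variable {t m : ℕ} {D : Fin t → Submodule F V} {G : Subgroup (V ≃ₗ[F] V)}
  {bs : Basis (Σ _ : Fin t, Fin m) F V}

lemma decStab_of_preserve [FiniteDimensional F V] {g : V ≃ₗ[F] V}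
    (h : ∀ i, ∀ w ∈ D i, g w ∈ D i) : DecStab D g :=
  ⟨1, fun i => map_eq_of_forall_mem _ _ _ rfl (h i)⟩

namespace Ctx

variable (C : Ctx D G bs)
include C

lemma block_mem [FiniteDimensional F V] {j : Fin t} {b : V} (hb : b ∈ D j) {ψ : Dual F V}
    (hψ : Cc D j ≤ LinearMap.ker ψ) (h : ψ b = 0) : tr ψ b h ∈ G := by
  refine C.hP _ (tr_det _ _ _) (decStab_of_preserve fun i w hw => ?_)
  rw [tr_apply]
  by_cases hij : i = j
  · subst hij
    exact (D i).add_mem hw ((D i).smul_mem _ hb)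
  · have : ψ w = 0 := hψ (le_Cc D hij hw)
    rw [this, zero_smul, add_zero]
    exact hw

lemma coord_supp (j : Fin t) (r : Fin m) : Cc D j ≤ LinearMap.ker (bs.coord ⟨j, r⟩) := by
  intro x hx
  exact (mem_compl_iff D bs C.hmem C.hspan j x).1 hx r

lemma exists_beta {j : Fin t} {x : V} (hx : x ∉ Cc D j) :
    ∃ β : Dual F V, Cc D j ≤ LinearMap.ker β ∧ β x = 1 := by
  obtain ⟨β, h1, h2⟩ := Submodule.exists_le_ker_of_notMem hx
  refine ⟨(β x)⁻¹ • β, ?_, ?_⟩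
  · intro y hy
    have : β y = 0 := h2 hy
    simp [this]
  · simp [h1]

lemma notMem_Cc {j : Fin t} {x : V} (hx : x ∈ D j) (h0 : x ≠ 0) : x ∉ Cc D j :=
  fun h => h0 (eq_zero_of_mem_of_mem_Cc C.hind hx h)

/-- a functional on block `j` killing `a` and not zero on the block -/
lemma exists_eps (j : Fin t) (a : V) :
    ∃ ε : Dual F V, Cc D j ≤ LinearMap.ker ε ∧ ε a = 0 ∧ ∃ b ∈ D j, ε b = 1 := by
  have hm := C.hm
  set i0 : Fin m := ⟨0, by omega⟩ with hi0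
  set i1 : Fin m := ⟨1, by omega⟩ with hi1
  have h01 : i1 ≠ i0 := by simp [hi0, hi1, Fin.ext_iff]
  by_cases h : bs.coord ⟨j, i0⟩ a = 0
  · refine ⟨bs.coord ⟨j, i0⟩, C.coord_supp j i0, h, bs ⟨j, i0⟩, C.hmem ⟨j, i0⟩, ?_⟩
    rw [coord_self_ite, if_pos rfl]
  · refine ⟨bs.coord ⟨j, i1⟩ - (bs.coord ⟨j, i1⟩ a / bs.coord ⟨j, i0⟩ a) • bs.coord ⟨j, i0⟩, ?_, ?_,
      bs ⟨j, i1⟩, C.hmem ⟨j, i1⟩, ?_⟩
    · intro y hy
      have e1 : bs.coord ⟨j, i1⟩ y = 0 := C.coord_supp j i1 hy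
      have e0 : bs.coord ⟨j, i0⟩ y = 0 := C.coord_supp j i0 hy
      simp [e1, e0]
    · simp only [LinearMap.sub_apply, LinearMap.smul_apply, smul_eq_mul]
      field_simp
      ring
    · simp only [LinearMap.sub_apply, LinearMap.smul_apply, smul_eq_mul, coord_self_ite]
      rw [if_pos trivial, if_neg]
      · ring
      · intro hh
        simp only [Sigma.mk.injEq, heq_eq_eq, true_and] at hh
        exact h01 hh

/-- a non-zero vector of block `k` killed by `φ` -/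
lemma exists_vec (k : Fin t) (φ : Dual F V) : ∃ e ∈ D k, e ≠ 0 ∧ φ e = 0 := by
  have hm := C.hm
  set i0 : Fin m := ⟨0, by omega⟩ with hi0
  set i1 : Fin m := ⟨1, by omega⟩ with hi1
  have h01 : i1 ≠ i0 := by simp [hi0, hi1, Fin.ext_iff]
  by_cases h : φ (bs ⟨k, i0⟩) = 0
  · exact ⟨bs ⟨k, i0⟩, C.hmem ⟨k, i0⟩, bs.ne_zero _, h⟩
  · refine ⟨bs ⟨k, i1⟩ - (φ (bs ⟨k, i1⟩) / φ (bs ⟨k, i0⟩)) • bs ⟨k, i0⟩,
      (D k).sub_mem (C.hmem ⟨k, i1⟩) ((D k).smul_mem _ (C.hmem ⟨k, i0⟩)), ?_, ?_⟩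
    · intro h0
      have := congrArg (bs.coord ⟨k, i1⟩) h0
      simp only [map_sub, map_smul, coord_self_ite, map_zero, smul_eq_mul] at this
      rw [if_pos trivial, if_neg] at this
      · simp at this
      · intro hh
        simp only [Sigma.mk.injEq, heq_eq_eq, true_and] at hh
        exact h01 hh.symm
    · simp only [map_sub, map_smul, smul_eq_mul]
      field_simp
      ring

/-- first half of the key lemma -/
lemma K1 [FiniteDimensional F V] {φ : Dual F V} {a : V} {h : φ a = 0} (hτ : tr φ a h ∈ G)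
    {k : Fin t} (hak : a ∈ Cc D k) (hφk : ∃ b ∈ D k, φ b ≠ 0) :
    ∀ ψ : Dual F V, Cc D k ≤ LinearMap.ker ψ → ∀ h' : ψ a = 0, tr ψ a h' ∈ G := by
  obtain ⟨b, hb, hφb⟩ := hφk
  obtain ⟨b0, hb0, hφb0⟩ : ∃ b0 ∈ D k, φ b0 = 1 :=
    ⟨(φ b)⁻¹ • b, (D k).smul_mem _ hb, by simp [hφb]⟩
  obtain ⟨e, he, he0, hφe⟩ := C.exists_vec k φ
  obtain ⟨ψ1, hψ1, hψ1e⟩ := C.exists_beta (C.notMem_Cc he he0)
  have key : ∀ ψ : Dual F V, Cc D k ≤ LinearMap.ker ψ → ψ e ≠ 0 → ∀ h' : ψ a = 0,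
      tr ψ a h' ∈ G := by
    intro ψ hψ hψe h'
    have hb' : b0 - (ψ b0 / ψ e) • e ∈ D k := (D k).sub_mem hb0 ((D k).smul_mem _ he)
    have h1 : ψ (b0 - (ψ b0 / ψ e) • e) = 0 := by
      simp only [map_sub, map_smul, smul_eq_mul]
      field_simp
      ring
    have h2 : φ (b0 - (ψ b0 / ψ e) • e) = 1 := by
      simp only [map_sub, map_smul, smul_eq_mul, hφe, hφb0, mul_zero, sub_zero]
    exact mem_comm_one (C.block_mem hb' hψ h1) hτ h' h2
  intro ψ hψ h'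
  by_cases hψe : ψ e = 0
  · have hs : Cc D k ≤ LinearMap.ker (ψ - ψ1) := by
      intro y hy
      have e1 : ψ y = 0 := hψ hy
      have e2 : ψ1 y = 0 := hψ1 hy
      simp [e1, e2]
    have ha1 : ψ1 a = 0 := hψ1 hak
    have ha2 : (ψ - ψ1) a = 0 := hs hak
    have h3 : ((ψ - ψ1) + ψ1) a = 0 := by simp [h']
    have := tr_add_left (ψ - ψ1) ψ1 a ha2 ha1 h3
    have h4 : tr ((ψ - ψ1) + ψ1) a h3 ∈ G := by
      rw [this]
      refine G.mul_mem (key _ hs ?_ _) (key _ hψ1 ?_ _)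
      · simp [hψe, hψ1e]
      · simp [hψ1e]
    simpa only [sub_add_cancel] using h4
  · exact key ψ hψ hψe h'

/-- second half of the key lemma -/
lemma K2 [FiniteDimensional F V] {a : V} {j k : Fin t} (hjk : j ≠ k) (haj : a ∉ Cc D j)
    (hak : a ∈ Cc D k)
    (hall : ∀ χ : Dual F V, Cc D k ≤ LinearMap.ker χ → ∀ h' : χ a = 0, tr χ a h' ∈ G) :
    ∀ b ∈ D j, ∀ χ : Dual F V, Cc D k ≤ LinearMap.ker χ → ∀ h' : χ b = 0, tr χ b h' ∈ G := by
  obtain ⟨β0, hβ0, hβ0a⟩ := C.exists_beta haj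
  obtain ⟨ε, hε, hεa, b1, hb1, hεb1⟩ := C.exists_eps j a
  have key : ∀ b ∈ D j, ε b ≠ 0 → ∀ χ : Dual F V, Cc D k ≤ LinearMap.ker χ → ∀ h' : χ b = 0,
      tr χ b h' ∈ G := by
    intro b hb hεb χ hχ h'
    have hs : Cc D j ≤ LinearMap.ker (β0 - (β0 b / ε b) • ε) := by
      intro y hy
      have e1 : β0 y = 0 := hβ0 hy
      have e2 : ε y = 0 := hε hy
      simp [e1, e2]
    have h1 : (β0 - (β0 b / ε b) • ε) b = 0 := by
      simp only [LinearMap.sub_apply, LinearMap.smul_apply, smul_eq_mul]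
      field_simp
      ring
    have h2 : (β0 - (β0 b / ε b) • ε) a = 1 := by
      simp only [LinearMap.sub_apply, LinearMap.smul_apply, smul_eq_mul, hεa, hβ0a, mul_zero,
        sub_zero]
    exact mem_comm_one (hall χ hχ (hχ hak)) (C.block_mem hb hs h1) h' h2
  intro b hb χ hχ h'
  by_cases hεb : ε b = 0
  · have hχ1 : χ b1 = 0 := hχ (le_Cc D hjk hb1)
    have hχ2 : χ (b - b1) = 0 := hχ (le_Cc D hjk ((D j).sub_mem hb hb1))
    have h3 : χ ((b - b1) + b1) = 0 := by simp [h']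
    have := tr_add_right χ (b - b1) b1 hχ2 hχ1 h3
    have h4 : tr χ ((b - b1) + b1) h3 ∈ G := by
      rw [this]
      refine G.mul_mem (key _ ((D j).sub_mem hb hb1) ?_ χ hχ _) (key _ hb1 ?_ χ hχ _)
      · simp [hεb, hεb1]
      · simp [hεb1]
    simpa only [sub_add_cancel] using h4
  · exact key b hb hεb χ hχ h'

end Ctx

end Cfsg.Agent.Lib.Helper63.Mono
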