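import Mathlib
import Cfsg.Agent.Lib.Helper63.Mono.M2b

set_option autoImplicit false
set_option linter.unusedSimpArgs false
set_option linter.unusedSectionVars false

/-! # Decomposition stabilisers with blocks of dimension at least two: reductions -/

namespace Cfsg.Agent.Lib.Helper63.Mono

open Cfsg.Agent.Lib.Helper94 Module

variable {F V : Type*} [Field F] [AddCommGroup V] [Module F V]

/-- commutator of a transvection with a map fixing its functional -/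
lemma tr_comm_fix (φ : Dual F V) (a : V) (h : φ a = 0) (x : V ≃ₗ[F] V) (hx : ∀ v, φ (x v) = φ v)
    (h' : φ (a - x a) = 0) :
    tr φ a h * x * (tr φ a h)⁻¹ * x⁻¹ = tr φ (a - x a) h' := by
  rw [tr_inv φ a h (by simp [h])]
  ext z
  obtain ⟨w, rfl⟩ := x.surjective z
  simp only [LinearEquiv.mul_apply, tr_apply, map_add, map_smul, LinearMap.neg_apply, h, hx,
    smul_zero, add_zero, neg_smul, map_neg, inv_apply_self', smul_eq_mul, mul_zero, neg_zero,
    smul_sub, zero_smul]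
  abel

variable {t m : ℕ} {D : Fin t → Submodule F V} {G : Subgroup (V ≃ₗ[F] V)}
  {bs : Basis (Σ _ : Fin t, Fin m) F V}

lemma dil_det [FiniteDimensional F V] {f : Dual F V} {v : V} (h : IsUnit (1 + f v)) :
    LinearMap.det ((LinearEquiv.dilatransvection h : V ≃ₗ[F] V) : V →ₗ[F] V) = 1 + f v := by
  rw [LinearEquiv.dilatransvection.coe_toLinearMap, LinearMap.transvection.det]

lemma det_mul' (x y : V ≃ₗ[F] V) :
    LinearMap.det ((x * y : V ≃ₗ[F] V) : V →ₗ[F] V)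
      = LinearMap.det (x : V →ₗ[F] V) * LinearMap.det (y : V →ₗ[F] V) := by
  rw [← map_mul]; rfl

lemma dil_preserve {j : Fin t} {f : Dual F V} {v : V} (hv : v ∈ D j)
    (hf : Cc D j ≤ LinearMap.ker f) (h : IsUnit (1 + f v)) :
    ∀ i, ∀ w ∈ D i, (LinearEquiv.dilatransvection h : V ≃ₗ[F] V) w ∈ D i := by
  intro i w hw
  rw [LinearEquiv.dilatransvection.apply]
  by_cases hij : i = j
  · subst hij
    exact (D i).add_mem hw ((D i).smul_mem _ hv)
  · have : f w = 0 := hf (le_Cc D hij hw)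
    rw [this, zero_smul, add_zero]
    exact hw

namespace Ctx

variable (C : Ctx D G bs)
include C

/-- reduction, blocks of dimension at least three -/
lemma R3 [FiniteDimensional F V] (hm3 : 3 ≤ m) {φ : Dual F V} {a : V} {h : φ a = 0}
    (hτ : tr φ a h ∈ G) {j : Fin t} (haj : a ∉ Cc D j) :
    ∃ b ∈ D j, b ≠ 0 ∧ ∃ h' : φ b = 0, tr φ b h' ∈ G := by
  obtain ⟨β0, hβ0, hβ0a⟩ := C.exists_beta haj
  have hker : LinearMap.ker ((φ.prod β0) ∘ₗ (D j).subtype) ≠ ⊥ := by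
    apply LinearMap.ker_ne_bot_of_finrank_lt
    rw [C.hfr j, Module.finrank_prod, Module.finrank_self]
    omega
  obtain ⟨x, hx, hx0⟩ := Submodule.exists_mem_ne_zero_of_ne_bot hker
  have hx' : φ (x : V) = 0 ∧ β0 (x : V) = 0 := by
    have := LinearMap.mem_ker.1 hx
    simpa [Prod.ext_iff] using this
  refine ⟨x, x.2, fun h0 => hx0 (Subtype.ext h0), hx'.1, ?_⟩
  exact mem_comm_one hτ (C.block_mem x.2 hβ0 hx'.2) hx'.1 hβ0a

/-- reduction with a dilation -/
lemma R2 [FiniteDimensional F V] {c : F} (hc0 : c ≠ 0) (hc1 : c ≠ 1) {φ : Dual F V} {a : V}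
    {h : φ a = 0} (hτ : tr φ a h ∈ G) {j l : Fin t} (hjl : j ≠ l) (haj : a ∉ Cc D j) :
    ∃ a' ∈ D j ⊔ D l, a' ∉ Cc D j ∧ ∃ h' : φ a' = 0, tr φ a' h' ∈ G := by
  obtain ⟨vj, hvj, hvj0, hφvj⟩ := C.exists_vec j φ
  obtain ⟨vl, hvl, hvl0, hφvl⟩ := C.exists_vec l φ
  obtain ⟨β, hβ, hβvl⟩ := C.exists_beta (C.notMem_Cc hvl hvl0)
  obtain ⟨α, hα, hαv, hαa⟩ : ∃ α : Dual F V, Cc D j ≤ LinearMap.ker α ∧ α vj ≠ 0 ∧ α a ≠ 0 := by
    obtain ⟨γ, hγ, hγv⟩ := C.exists_beta (C.notMem_Cc hvj hvj0)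
    obtain ⟨β0, hβ0, hβ0a⟩ := C.exists_beta haj
    by_cases h1 : γ a = 0
    · by_cases h2 : β0 vj = 0
      · refine ⟨γ + β0, ?_, ?_, ?_⟩
        · intro y hy
          have e1 : γ y = 0 := hγ hy
          have e2 : β0 y = 0 := hβ0 hy
          simp [e1, e2]
        · simp [hγv, h2]
        · simp [h1, hβ0a]
      · exact ⟨β0, hβ0, h2, by simp [hβ0a]⟩
    · exact ⟨γ, hγ, by simp [hγv], h1⟩
  have hαvl : α vl = 0 := hα (le_Cc D hjl.symm hvl)
  have hfj : Cc D j ≤ LinearMap.ker (((c - 1) / α vj) • α) := by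
    intro y hy
    have e1 : α y = 0 := hα hy
    simp [e1]
  have hfl : Cc D l ≤ LinearMap.ker ((c⁻¹ - 1) • β) := by
    intro y hy
    have e1 : β y = 0 := hβ hy
    simp [e1]
  have e1 : 1 + (((c - 1) / α vj) • α) vj = c := by
    simp only [LinearMap.smul_apply, smul_eq_mul]
    field_simp
    ring
  have e2 : 1 + ((c⁻¹ - 1) • β) vl = c⁻¹ := by
    simp only [LinearMap.smul_apply, smul_eq_mul, hβvl]
    ring
  have u1 : IsUnit (1 + (((c - 1) / α vj) • α) vj) := by rw [e1]; exact IsUnit.mk0 _ hc0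
  have u2 : IsUnit (1 + ((c⁻¹ - 1) • β) vl) := by rw [e2]; exact IsUnit.mk0 _ (inv_ne_zero hc0)
  set xj : V ≃ₗ[F] V := LinearEquiv.dilatransvection u1 with hxj
  set xl : V ≃ₗ[F] V := LinearEquiv.dilatransvection u2 with hxl
  have hxG : xj * xl ∈ G := by
    refine C.hP _ ?_ (decStab_of_preserve fun i w hw => ?_)
    · rw [det_mul', hxj, hxl, dil_det, dil_det, e1, e2, mul_inv_cancel₀ hc0]
    · rw [LinearEquiv.mul_apply]
      exact dil_preserve hvj hfj u1 i _ (dil_preserve hvl hfl u2 i w hw)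
  have hxa : ∀ v, (xj * xl) v = v + ((c⁻¹ - 1) * β v) • vl + ((c - 1) / α vj * α v) • vj := by
    intro v
    rw [LinearEquiv.mul_apply, hxj, hxl, LinearEquiv.dilatransvection.apply,
      LinearEquiv.dilatransvection.apply]
    simp only [LinearMap.smul_apply, smul_eq_mul, map_add, map_smul, hαvl, mul_zero, add_zero]
  have hfix : ∀ v, φ ((xj * xl) v) = φ v := by
    intro v
    rw [hxa]
    simp only [map_add, map_smul, hφvl, hφvj, smul_zero, add_zero]
  have h' : φ (a - (xj * xl) a) = 0 := by rw [map_sub, hfix, sub_self]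
  refine ⟨a - (xj * xl) a, ?_, ?_, h', ?_⟩
  · rw [hxa]
    have : a - (a + ((c⁻¹ - 1) * β a) • vl + ((c - 1) / α vj * α a) • vj)
        = (-((c - 1) / α vj * α a)) • vj + (-((c⁻¹ - 1) * β a)) • vl := by
      module
    rw [this]
    exact Submodule.add_mem_sup ((D j).smul_mem _ hvj) ((D l).smul_mem _ hvl)
  · intro hmem
    have h0 : α (a - (xj * xl) a) = 0 := hα hmem
    rw [hxa] at h0
    simp only [map_sub, map_add, map_smul, hαvl, smul_eq_mul, mul_zero, add_zero] at h0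
    have h1 : (c - 1) * α a = 0 := by
      have : (c - 1) / α vj * α a * α vj = (c - 1) * α a := by field_simp
      rw [← this]
      linear_combination -h0
    rcases mul_eq_zero.1 h1 with h2 | h2
    · exact hc1 (sub_eq_zero.1 h2)
    · exact hαa h2
  · rw [← tr_comm_fix φ a h (xj * xl) hfix h']
    exact G.mul_mem (G.mul_mem (G.mul_mem hτ hxG) (G.inv_mem hτ)) (G.inv_mem hxG)

/-- block permutations -/
lemma exists_perm [FiniteDimensional F V] (ht : 0 < t) (σ : Equiv.Perm (Fin t)) :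
    ∃ g ∈ G, ∀ i, (D i).map (g : V →ₗ[F] V) = D (σ i) := by
  have hm := C.hm
  let e : (Σ _ : Fin t, Fin m) ≃ (Σ _ : Fin t, Fin m) :=
    ⟨fun a => ⟨σ a.1, a.2⟩, fun a => ⟨σ.symm a.1, a.2⟩, fun a => by simp, fun a => by simp⟩
  set s : V ≃ₗ[F] V := bs.equiv bs e with hs
  have hsD : ∀ i, ∀ w ∈ D i, s w ∈ D (σ i) := by
    intro i w hw
    obtain ⟨c, rfl⟩ := C.hspan i w hw
    rw [map_sum]
    refine Submodule.sum_mem _ fun k _ => ?_
    rw [map_smul, hs, Basis.equiv_apply]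
    exact (D (σ i)).smul_mem _ (C.hmem ⟨σ i, k⟩)
  set δ : F := LinearMap.det (s : V →ₗ[F] V) with hδ
  have hδ0 : δ ≠ 0 := (LinearEquiv.isUnit_det' s).ne_zero
  set i0 : Fin t := ⟨0, ht⟩
  set r0 : Fin m := ⟨0, by omega⟩
  have e1 : 1 + ((δ⁻¹ - 1) • bs.coord ⟨i0, r0⟩) (bs ⟨i0, r0⟩) = δ⁻¹ := by
    simp only [LinearMap.smul_apply, smul_eq_mul, coord_self_ite, if_true]
    ring
  have u1 : IsUnit (1 + ((δ⁻¹ - 1) • bs.coord ⟨i0, r0⟩) (bs ⟨i0, r0⟩)) := by
    rw [e1]; exact IsUnit.mk0 _ (inv_ne_zero hδ0)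
  have hf : Cc D i0 ≤ LinearMap.ker ((δ⁻¹ - 1) • bs.coord ⟨i0, r0⟩) := by
    intro y hy
    have e1 : bs.coord ⟨i0, r0⟩ y = 0 := C.coord_supp i0 r0 hy
    simp [e1]
  have hmap : ∀ i, (D i).map ((s * LinearEquiv.dilatransvection u1 : V ≃ₗ[F] V) : V →ₗ[F] V)
      = D (σ i) := by
    intro i
    refine map_eq_of_forall_mem _ _ _ ((C.hfr i).trans (C.hfr _).symm) fun w hw => ?_
    rw [LinearEquiv.mul_apply]
    exact hsD i _ (dil_preserve (C.hmem ⟨i0, r0⟩) hf u1 i w hw)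
  refine ⟨s * LinearEquiv.dilatransvection u1, C.hP _ ?_ ⟨σ, hmap⟩, hmap⟩
  rw [det_mul', dil_det, e1, ← hδ, mul_inv_cancel₀ hδ0]

end Ctx

end Cfsg.Agent.Lib.Helper63.Mono
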