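import Mathlib
import Cfsg.Agent.Lib.Helper63.Mono.M2c

set_option autoImplicit false
set_option linter.unusedSimpArgs false
set_option linter.unusedSectionVars false

/-! # Decomposition stabilisers with blocks of dimension at least two: the core theorem -/

namespace Cfsg.Agent.Lib.Helper63.Mono

open Cfsg.Agent.Lib.Helper94 Module

variable {F V : Type*} [Field F] [AddCommGroup V] [Module F V]

variable {t m : ℕ} {D : Fin t → Submodule F V} {G : Subgroup (V ≃ₗ[F] V)}
  {bs : Basis (Σ _ : Fin t, Fin m) F V}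

/-- all transvections with centre in block `j` and functional living on block `k` are in `G` -/
def Cross (D : Fin t → Submodule F V) (G : Subgroup (V ≃ₗ[F] V)) (j k : Fin t) : Prop :=
  ∀ b ∈ D j, ∀ χ : Dual F V, Cc D k ≤ LinearMap.ker χ → ∀ h' : χ b = 0, tr χ b h' ∈ G

namespace Ctx

variable (C : Ctx D G bs)
include C

lemma cross_perm [FiniteDimensional F V] (ht : 0 < t) {j k : Fin t} (h : Cross D G j k)
    (σ : Equiv.Perm (Fin t)) : Cross D G (σ j) (σ k) := by
  obtain ⟨g, hg, hmap⟩ := C.exists_perm ht σ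
  intro b' hb' χ hχ h'
  rw [← hmap j] at hb'
  obtain ⟨b, hb, rfl⟩ := hb'
  have hs : Cc D k ≤ LinearMap.ker (χ ∘ₗ (g : V →ₗ[F] V)) := by
    refine iSup₂_le fun i hi w hw => ?_
    have h1 : g w ∈ D (σ i) := by
      rw [← hmap i]; exact Submodule.mem_map_of_mem hw
    have h2 : σ i ≠ σ k := fun hh => hi (σ.injective hh)
    exact hχ (le_Cc D h2 h1)
  have := conj_tr g χ b h'
  change tr χ (g b) h' ∈ G
  rw [← this]
  exact G.mul_mem (G.mul_mem hg (h b hb _ hs _)) (G.inv_mem hg)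

lemma cross_all [FiniteDimensional F V] (ht : 0 < t) {j k : Fin t} (hjk : j ≠ k)
    (h : Cross D G j k) : ∀ j' k' : Fin t, j' ≠ k' → Cross D G j' k' := by
  intro j' k' hjk'
  set σ1 : Equiv.Perm (Fin t) := Equiv.swap j j' with hσ1
  set σ2 : Equiv.Perm (Fin t) := Equiv.swap k' (σ1 k) with hσ2
  have h1 : σ1 j = j' := Equiv.swap_apply_left _ _
  have h2 : σ1 k ≠ j' := by
    intro hh
    rw [← h1] at hh
    exact hjk (σ1.injective hh).symm
  have h3 : (σ2 * σ1) j = j' := by
    rw [Equiv.Perm.mul_apply, h1, hσ2, Equiv.swap_apply_of_ne_of_ne hjk' h2.symm]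
  have h4 : (σ2 * σ1) k = k' := by
    rw [Equiv.Perm.mul_apply, hσ2, Equiv.swap_apply_right]
  have := C.cross_perm ht h (σ2 * σ1)
  rwa [h3, h4] at this

lemma final [FiniteDimensional F V] (hcross : ∀ j k : Fin t, j ≠ k → Cross D G j k) :
    ∀ (f : Dual F V) (v : V) (h : f v = 0), tr f v h ∈ G := by
  classical
  have hD : ∀ j, D j ≤ ctrSub G := by
    intro j b hb φ hφ
    set φk : Fin t → Dual F V := fun k => ∑ r, φ (bs ⟨k, r⟩) • bs.coord ⟨k, r⟩ with hφk
    have hsum : φ = ∑ k, φk k := by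
      rw [← bs.sum_dual_apply_smul_coord φ, Fintype.sum_sigma]
    have hsupp : ∀ k, Cc D k ≤ LinearMap.ker (φk k) := by
      intro k y hy
      rw [LinearMap.mem_ker, hφk]
      simp only [LinearMap.sum_apply, LinearMap.smul_apply]
      refine Finset.sum_eq_zero fun r _ => ?_
      have : bs.coord ⟨k, r⟩ y = 0 := C.coord_supp k r hy
      rw [this, smul_zero]
    have hb0 : ∀ k, k ≠ j → φk k b = 0 := fun k hk => hsupp k (le_Cc D hk.symm hb)
    have hbj : φk j b = 0 := by
      have h1 : φ b = ∑ k, φk k b := by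
        conv_lhs => rw [hsum]
        rw [LinearMap.sum_apply]
      rw [Finset.sum_eq_single j (fun k _ hk => hb0 k hk) (fun h => absurd (Finset.mem_univ _) h)]
        at h1
      rw [← h1, hφ]
    have hb' : ∀ k, φk k b = 0 := by
      intro k
      by_cases hk : k = j
      · rw [hk]; exact hbj
      · exact hb0 k hk
    have hmemk : ∀ k, tr (φk k) b (hb' k) ∈ G := by
      intro k
      by_cases hk : k = j
      · subst hk
        exact C.block_mem hb (hsupp k) _
      · exact hcross j k (Ne.symm hk) b hb _ (hsupp k) _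
    have hfin : ∀ s : Finset (Fin t), ∀ h : (∑ k ∈ s, φk k) b = 0, tr (∑ k ∈ s, φk k) b h ∈ G := by
      intro s
      induction s using Finset.induction_on with
      | empty =>
        intro h
        have : tr (∑ k ∈ (∅ : Finset (Fin t)), φk k) b h = 1 := by
          ext x; simp [tr_apply]
        rw [this]; exact G.one_mem
      | insert l s hl ih =>
        intro h
        have h2 : (∑ k ∈ s, φk k) b = 0 := by
          rw [LinearMap.sum_apply]
          exact Finset.sum_eq_zero fun k _ => hb' k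
        have h3 : (φk l + ∑ k ∈ s, φk k) b = 0 := by
          rw [LinearMap.add_apply, hb' l, h2, add_zero]
        have h4 : tr (φk l + ∑ k ∈ s, φk k) b h3 ∈ G := by
          rw [tr_add_left _ _ b (hb' l) h2 h3]
          exact G.mul_mem (hmemk l) (ih h2)
        simpa only [Finset.sum_insert hl] using h4
    have h5 : (∑ k ∈ Finset.univ, φk k) b = 0 := by rw [← hsum]; exact hφ
    have h6 := hfin Finset.univ h5
    simpa only [← hsum] using h6
  have htop' : ctrSub G = ⊤ := by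
    rw [eq_top_iff, ← C.htop]
    exact iSup_le hD
  intro f v h
  have : v ∈ ctrSub G := by rw [htop']; trivial
  exact this f h

/-- a vector all of whose components outside block `k` vanish is in block `k` -/
lemma mem_of_forall_mem_Cc {k : Fin t} {x : V} (h : ∀ j, j ≠ k → x ∈ Cc D j) : x ∈ D k := by
  rw [← bs.sum_repr x]
  refine Submodule.sum_mem _ fun a _ => ?_
  by_cases ha : a.1 = k
  · rw [← ha]; exact (D a.1).smul_mem _ (C.hmem a)
  · have h1 : bs.coord ⟨a.1, a.2⟩ x = 0 := C.coord_supp a.1 a.2 (h a.1 ha)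
    rw [Basis.coord_apply] at h1
    have h2 : bs.repr x a = 0 := h1
    rw [h2, zero_smul]
    exact Submodule.zero_mem _

/-- `G` contains a transvection which is not a block transvection -/
lemma exists_nonblock [FiniteDimensional F V] (φ0 : V ≃ₗ[F] V) (hφ0 : φ0 ∈ G)
    (hns : ¬ DecStab D φ0) :
    ∃ (φ : Dual F V) (a : V) (h : φ a = 0), tr φ a h ∈ G ∧
      ∃ j k : Fin t, j ≠ k ∧ a ∉ Cc D j ∧ ∃ b ∈ D k, φ b ≠ 0 := by
  classical
  by_contra hcon
  push Not at hcon
  apply hns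
  have hm := C.hm
  -- every vector of a block is mapped into a block
  have c1 : ∀ j, ∀ b ∈ D j, ∃ k, φ0 b ∈ D k := by
    intro j b hb
    obtain ⟨ψ, hψ, hψb, b1, hb1, hψb1⟩ := C.exists_eps j b
    have hτ := C.block_mem hb hψ hψb
    have h' : (ψ ∘ₗ (φ0.symm : V →ₗ[F] V)) (φ0 b) = 0 := by simp [hψb]
    have hτ' : tr (ψ ∘ₗ (φ0.symm : V →ₗ[F] V)) (φ0 b) h' ∈ G := by
      rw [← tr_conj φ0 ψ b hψb h']
      exact G.mul_mem (G.mul_mem hφ0 hτ) (G.inv_mem hφ0)
    obtain ⟨k0, y, hy, hy0⟩ : ∃ k, ∃ y ∈ D k, (ψ ∘ₗ (φ0.symm : V →ₗ[F] V)) y ≠ 0 := by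
      by_contra hc
      push Not at hc
      have hle : iSup D ≤ LinearMap.ker (ψ ∘ₗ (φ0.symm : V →ₗ[F] V)) :=
        iSup_le fun k y hy => hc k y hy
      rw [C.htop] at hle
      have : (ψ ∘ₗ (φ0.symm : V →ₗ[F] V)) (φ0 b1) = 0 := hle trivial
      simp [hψb1] at this
    refine ⟨k0, C.mem_of_forall_mem_Cc fun j' hj' => ?_⟩
    by_contra hnot
    exact hy0 (hcon _ _ h' hτ' j' k0 hj' hnot y hy)
  -- a common block
  have c2 : ∀ j, ∃ k, ∀ b ∈ D j, φ0 b ∈ D k := by
    intro j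
    set u : V := bs ⟨j, ⟨0, by omega⟩⟩ with hu
    have huD : u ∈ D j := C.hmem ⟨j, ⟨0, by omega⟩⟩
    have hu0 : u ≠ 0 := bs.ne_zero _
    obtain ⟨k, hk⟩ := c1 j u huD
    refine ⟨k, fun b hb => ?_⟩
    obtain ⟨k1, hk1⟩ := c1 j b hb
    obtain ⟨k2, hk2⟩ := c1 j (u + b) ((D j).add_mem huD hb)
    by_cases h1 : k1 = k
    · rw [← h1]; exact hk1
    · rw [map_add] at hk2
      by_cases h2 : k2 = k
      · rw [h2] at hk2
        have := (D k).sub_mem hk2 hk
        rwa [add_sub_cancel_left] at this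
      · exfalso
        have h3 : φ0 u ∈ Cc D k := by
          have := (Cc D k).sub_mem (le_Cc D h2 hk2) (le_Cc D h1 hk1)
          rwa [add_sub_cancel_right] at this
        have h4 := eq_zero_of_mem_of_mem_Cc C.hind hk h3
        exact hu0 (by simpa using h4)
  choose σ hσ using c2
  have hmap : ∀ j, (D j).map (φ0 : V →ₗ[F] V) = D (σ j) := fun j =>
    map_eq_of_forall_mem _ _ _ ((C.hfr j).trans (C.hfr _).symm) (hσ j)
  have hinj : Function.Injective σ := by
    intro j j' hjj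
    by_contra hne
    have h1 : (D j).map (φ0 : V →ₗ[F] V) = (D j').map (φ0 : V →ₗ[F] V) := by
      rw [hmap, hmap, hjj]
    have h2 : D j = D j' := Submodule.map_injective_of_injective φ0.injective h1
    have hu : bs ⟨j, ⟨0, by omega⟩⟩ ∈ D j := C.hmem ⟨j, ⟨0, by omega⟩⟩
    have hu' : bs ⟨j, ⟨0, by omega⟩⟩ ∈ Cc D j := le_Cc D (Ne.symm hne) (h2 ▸ hu)
    exact bs.ne_zero _ (eq_zero_of_mem_of_mem_Cc C.hind hu hu')
  exact ⟨Equiv.ofBijective σ (Finite.injective_iff_bijective.1 hinj), fun j => hmap j⟩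

end Ctx

/-- [M2] blocks of dimension `m ≥ 2`. -/
theorem core_ge_two {F V : Type*} [Field F] [AddCommGroup V] [Module F V] [FiniteDimensional F V]
    {t m : ℕ} (D : Fin t → Submodule F V) (hfr : ∀ i, finrank F (D i) = m) (hind : iSupIndep D)
    (htop : iSup D = ⊤) (hm : 2 ≤ m) (ht : 2 ≤ t)
    (h2 : m = 2 → 3 ≤ t ∧ ∃ c : F, c ≠ 0 ∧ c ≠ 1)
    (G : Subgroup (V ≃ₗ[F] V))
    (hP : ∀ φ : V ≃ₗ[F] V, LinearMap.det (φ : V →ₗ[F] V) = 1 → DecStab D φ → φ ∈ G)
    (φ0 : V ≃ₗ[F] V) (hφ0 : φ0 ∈ G) (hns : ¬ DecStab D φ0) :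
    ∀ (f : Dual F V) (v : V) (h : f v = 0), LinearEquiv.transvection h ∈ G := by
  classical
  obtain ⟨bs, hmem, hspan⟩ := exists_adapted_basis D hfr hind htop
  have C : Ctx D G bs := ⟨hfr, hind, htop, hm, hP, hmem, hspan⟩
  obtain ⟨φ, a, h, hτ, j, k, hjk, haj, hφk⟩ := C.exists_nonblock φ0 hφ0 hns
  -- reduction to a centre without component in block `k`
  obtain ⟨a', hak', haj', h', hτ'⟩ :
      ∃ a', a' ∈ Cc D k ∧ a' ∉ Cc D j ∧ ∃ h' : φ a' = 0, tr φ a' h' ∈ G := by
    by_cases hm2 : m = 2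
    · obtain ⟨ht3, c, hc0, hc1⟩ := h2 hm2
      obtain ⟨l, hl⟩ : ∃ l : Fin t, l ∉ ({j, k} : Finset (Fin t)) := by
        by_contra hcon
        push Not at hcon
        have h1 : Fintype.card (Fin t) ≤ ({j, k} : Finset (Fin t)).card := by
          rw [← Finset.card_univ]
          exact Finset.card_le_card fun x _ => hcon x
        have h3 : ({j, k} : Finset (Fin t)).card ≤ 2 := Finset.card_le_two
        rw [Fintype.card_fin] at h1
        omega
      simp only [Finset.mem_insert, Finset.mem_singleton, not_or] at hl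
      obtain ⟨a', ha', haj', h', hτ'⟩ := C.R2 hc0 hc1 hτ (Ne.symm hl.1) haj
      exact ⟨a', (sup_le (le_Cc D hjk) (le_Cc D hl.2)) ha', haj', h', hτ'⟩
    · obtain ⟨b, hb, hb0, h', hτ'⟩ := C.R3 (by omega) hτ haj
      exact ⟨b, le_Cc D hjk hb, C.notMem_Cc hb hb0, h', hτ'⟩
  have hcr : Cross D G j k := C.K2 hjk haj' hak' (C.K1 hτ' hak' hφk)
  exact C.final (C.cross_all (by omega) hjk hcr)

end Cfsg.Agent.Lib.Helper63.Mono
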